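import Cfsg.Agent.H724.RIM.Pairs
import Cfsg.Agent.H600.RIM.ExcDefs

/-!
# S4816, box EXC: `PartY` (helper724)
-/

set_option autoImplicit false

open scoped Pointwise

namespace Cfsg.Agent.H724.RIM

open Cfsg.Agent.H229.RIM

universe u

/-- **(3)** -/
theorem partY : Cfsg.Agent.H600.RIM.Exc.PartY.{u} := by
  intro p G _ _ Z Y l Ω _ _ L C g
  rw [mem_Y_iff C]
  constructor
  · intro h ω
    exact (h ω).2
  · intro h ω
    have hI : Inn (L ω) g := h ω
    refine ⟨C.inj ?_, hI⟩
    have key : ∀ k : G, Inn (L ω) k → ∀ x ∈ L ω, k * x * k⁻¹ ∈ L ω := by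
      rintro k ⟨e, he, h2⟩ x hx
      rw [h2 x hx]
      exact (L ω).mul_mem ((L ω).mul_mem he hx) ((L ω).inv_mem he)
    ext x
    rw [mem_L C]
    constructor
    · intro hx
      have h1 := key g hI _ hx
      have h2 : g * (g⁻¹ * x * g) * g⁻¹ = x := by group
      rwa [h2] at h1
    · intro hx
      have h1 := key g⁻¹ hI.inv x hx
      rwa [inv_inv] at h1

end Cfsg.Agent.H724.RIM
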