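import Cfsg.Agent.H724.RIM.Pairs
import Cfsg.Agent.H229.RIM.CaseK

/-!
# S4816, the exceptional box `6.A₆`: the stabilizers of the families (helper724)

* `famStab F τ` : the stabilizer of the section `F : Ω → A` and the colouring `τ`;
* `not_dvd_index` : its index (and the index of every larger subgroup) is prime to `p`.
-/

set_option autoImplicit false
set_option linter.unusedSectionVars false
set_option linter.style.haveILetI false

open Cfsg
open scoped commutatorElement Pointwise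

namespace Cfsg.Agent.H724.RIM

open Cfsg.Agent.H229.RIM
open Cfsg.Agent.Characters.Core Cfsg.Agent.Characters.Clifford Cfsg.Agent.H672
open Cfsg.Agent.H672.RM (over_lin_iff)
open Cfsg.Agent.H586.GW

universe u

variable {p : ℕ} {G : Type u} [Group G] {Z Y : Subgroup G} {l : Z →* ℂˣ} {Ω : Type u} [MulAction G Ω]
  {L : Ω → Subgroup G} {A : Type u} [MulAction G A] {π : A → Ω} {θ : A → Bool → G → ℂ}

variable (G) in
/-- the stabilizer of a section and a colouring -/
def famStab (F : Ω → A) (τ : Ω → Bool) : Subgroup G where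
  carrier := {g | ∀ ω, F (g • ω) = g • F ω ∧ τ (g • ω) = τ ω}
  one_mem' := fun ω => by rw [one_smul, one_smul]; exact ⟨rfl, rfl⟩
  mul_mem' := fun {a b} ha hb ω => by
    rw [mul_smul, mul_smul, (ha _).1, (ha _).2, (hb _).1, (hb _).2]
    exact ⟨rfl, rfl⟩
  inv_mem' := fun {a} ha ω => by
    have h1 := ha (a⁻¹ • ω)
    rw [smul_inv_smul] at h1
    exact ⟨by rw [h1.1, inv_smul_smul], h1.2.symm⟩

theorem mem_famStab {F : Ω → A} {τ : Ω → Bool} {g : G} :
    g ∈ famStab G F τ ↔ ∀ ω, F (g • ω) = g • F ω ∧ τ (g • ω) = τ ω := Iff.rfl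

/-- **The index of a subgroup containing the stabilizer of a family is prime to `p`.** -/
theorem not_dvd_index [hp : Fact p.Prime] [Finite G] (C : Comp p Z Y l L) [Finite Ω] (P : Pairs Z Y l L A π θ)
    {F : Ω → A} (hF : ∀ ω, π (F ω) = ω) (τ : Ω → Bool) {T : Subgroup G} (hT : famStab G F τ ≤ T) : ¬ p ∣ T.index := by
  classical
  letI := Fintype.ofFinite Ω
  haveI := C.nY
  obtain ⟨χ, hχ, hov, -, hrel⟩ := C.exists_prod (fun ω (y : L ω) => θ (F ω) (τ ω) y) (fam_irr P hF τ)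
    (fun ω x hx hz => fam_ov P hF τ ω x hx hz)
  have h1 := (C.min.over_normal C.nY C.ZY.le hχ hov).2.2
  intro hd
  apply h1
  refine hd.trans (Subgroup.index_dvd_of_le (le_trans ?_ hT))
  intro g hg
  rw [mem_famStab, ← fam_stab C P hF τ]
  intro ω
  -- proportional characters of `L ω`
  let e : L ω →* L (g • ω) :=
    { toFun := fun x => ⟨g * x * g⁻¹, mem_L' C x.2⟩
      map_one' := Subtype.ext (by change g * 1 * g⁻¹ = 1; group)
      map_mul' := fun a b => Subtype.ext (by change g * (a * b) * g⁻¹ = g * a * g⁻¹ * (g * b * g⁻¹); group) }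
  have he : Function.Surjective e := by
    rintro ⟨y, hy⟩
    exact ⟨⟨g⁻¹ * y * g, (mem_L C).1 hy⟩, Subtype.ext (by change g * (g⁻¹ * y * g) * g⁻¹ = y; group)⟩
  have h2 := Cfsg.Agent.Characters.Core.isIrr_comp e he (fam_irr P hF τ (g • ω))
  have h3 := fam_irr P hF τ ω
  have hχ1 : χ 1 ≠ 0 := Cfsg.Agent.Characters.Core.isIrr_apply_one_ne_zero hχ
  have h4 := eq_of_prop h2 h3 fun x => by
    have hxY : (x : G) ∈ Y := L_le C ω x.2
    have hgx : g * (x : G) * g⁻¹ ∈ L (g • ω) := mem_L' C x.2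
    have hgY : g * (x : G) * g⁻¹ ∈ Y := L_le C (g • ω) hgx
    have h5 := hrel ω x x.2 hxY
    have h6 := hrel (g • ω) _ hgx hgY
    have h7 : χ ⟨g * (x : G) * g⁻¹, hgY⟩ = χ ⟨x, hxY⟩ := by
      exact mem_inertia_iff.1 hg ⟨x, hxY⟩
    have e1 : ((e 1 : L (g • ω)) : G) = 1 := by rw [map_one]; rfl
    have h5' : χ ⟨x, hxY⟩ * θ (F ω) (τ ω) 1 = χ 1 * θ (F ω) (τ ω) x := h5
    have h6' : χ ⟨g * (x : G) * g⁻¹, hgY⟩ * θ (F (g • ω)) (τ (g • ω)) 1 =
      χ 1 * θ (F (g • ω)) (τ (g • ω)) (g * (x : G) * g⁻¹) := h6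
    change θ (F (g • ω)) (τ (g • ω)) (g * (x : G) * g⁻¹) * θ (F ω) (τ ω) 1 =
      θ (F ω) (τ ω) x * θ (F (g • ω)) (τ (g • ω)) ((e 1 : L (g • ω)) : G)
    rw [e1]
    apply mul_left_cancel₀ hχ1
    linear_combination (-θ (F ω) (τ ω) 1) * h6' + θ (F (g • ω)) (τ (g • ω)) 1 * h5' +
      θ (F ω) (τ ω) 1 * θ (F (g • ω)) (τ (g • ω)) 1 * h7
  intro x y hy
  have h5 := congrFun h4 x
  have h6 : y = e x := Subtype.ext hy
  rw [h6]
  exact h5

end Cfsg.Agent.H724.RIM
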